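-- helper1: project SPU (S2316), package [QID]: the q-series identity (1 - x) A(x) S(x) = G(x).
import Mathlib
import Cfsg.Agent.Lib.Helper19.SPU.Defs

set_option autoImplicit false

namespace Cfsg.Agent.Lib.Helper1.SPU

open PowerSeries

/-- uniqueness of the solution of `D = P * D(c x)` with `D(0) = 0`, `P(0) = 1`. -/
theorem qid_unique (c : ℚ) (hc : ∀ n : ℕ, 1 ≤ n → c ^ n ≠ 1) (P D : ℚ⟦X⟧)
    (hP : coeff 0 P = 1) (hD : D = P * rescale c D) (h0 : coeff 0 D = 0) : D = 0 := by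
  ext n
  rw [map_zero]
  induction n using Nat.strong_induction_on with
  | _ n ih =>
    rcases Nat.eq_zero_or_pos n with rfl | hn
    · exact h0
    · have h1 : coeff n D = coeff n (P * rescale c D) := congrArg (coeff n) hD
      rw [coeff_mul, Finset.sum_eq_single (0, n)] at h1
      · rw [hP, one_mul, coeff_rescale] at h1
        have h2 : (c ^ n - 1) * coeff n D = 0 := by linear_combination -h1
        rcases mul_eq_zero.mp h2 with h3 | h3
        · exact absurd (sub_eq_zero.mp h3) (hc n hn)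
        · exact h3
      · rintro ⟨i, j⟩ hij hne
        rw [Finset.HasAntidiagonal.mem_antidiagonal] at hij
        have hj : j < n := by
          by_contra hcon
          apply hne
          have e1 : i = 0 := by omega
          have e2 : j = n := by omega
          rw [e1, e2]
        simp only
        rw [coeff_rescale, ih j hj, mul_zero, mul_zero]
      · intro h
        exact absurd (Finset.HasAntidiagonal.mem_antidiagonal.mpr (zero_add n)) h

/-- coefficients of `(1 - C c * X) * B`. -/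
theorem coeff_one_sub_CX_mul_zero (c : ℚ) (B : ℚ⟦X⟧) :
    coeff 0 ((1 - C c * X) * B) = coeff 0 B := by
  rw [sub_mul, one_mul, map_sub, mul_assoc, coeff_C_mul, coeff_zero_X_mul, mul_zero, sub_zero]

theorem coeff_one_sub_CX_mul_succ (c : ℚ) (B : ℚ⟦X⟧) (n : ℕ) :
    coeff (n + 1) ((1 - C c * X) * B) = coeff (n + 1) B - c * coeff n B := by
  rw [sub_mul, one_mul, map_sub, mul_assoc, coeff_C_mul, coeff_succ_X_mul]

/-- the identity from the three recurrences. -/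
theorem qid_core (q : ℚ) (hq : 1 < q) (a s g : ℕ → ℚ) (a0 : a 0 = 1) (s0 : s 0 = 1)
    (g0 : g 0 = 1)
    (Ra : ∀ m, a (m + 1) * (q ^ (2 * (m + 1)) - 1) = q ^ (2 * (m + 1)) * a m)
    (Rs : ∀ k, s (k + 1) * (q ^ (2 * (k + 1)) - 1) = q ^ (2 * k + 1) * s k)
    (Rg : ∀ k, g (k + 1) * (q ^ (k + 1) - 1) = q ^ k * g k) :
    (1 - X) * mk a * mk s = (mk g : ℚ⟦X⟧) := by
  have hA : (mk a : ℚ⟦X⟧) = (1 - C (q ^ 2) * X) * rescale (q ^ 2) (mk a) := by
    ext n
    rcases n with _ | n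
    · rw [coeff_one_sub_CX_mul_zero, coeff_rescale, pow_zero, one_mul]
    · rw [coeff_one_sub_CX_mul_succ, coeff_rescale, coeff_rescale, coeff_mk, coeff_mk]
      linear_combination -(Ra n)
  have hS : (mk s : ℚ⟦X⟧) = (1 - C q * X) * rescale (q ^ 2) (mk s) := by
    ext n
    rcases n with _ | n
    · rw [coeff_one_sub_CX_mul_zero, coeff_rescale, pow_zero, one_mul]
    · rw [coeff_one_sub_CX_mul_succ, coeff_rescale, coeff_rescale, coeff_mk, coeff_mk]
      linear_combination -(Rs n)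
  have hG : (mk g : ℚ⟦X⟧) = (1 - C 1 * X) * rescale q (mk g) := by
    ext n
    rcases n with _ | n
    · rw [coeff_one_sub_CX_mul_zero, coeff_rescale, pow_zero, one_mul]
    · rw [coeff_one_sub_CX_mul_succ, coeff_rescale, coeff_rescale, coeff_mk, coeff_mk]
      linear_combination -(Rg n)
  rw [map_one, one_mul] at hG
  have hG1 : rescale q (mk g : ℚ⟦X⟧) = (1 - C q * X) * rescale (q ^ 2) (mk g) := by
    have h := congrArg (rescale q) hG
    rw [map_mul, map_sub, map_one, rescale_X, rescale_rescale, ← pow_two] at h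
    exact h
  have hG2 : (mk g : ℚ⟦X⟧) = ((1 - X) * (1 - C q * X)) * rescale (q ^ 2) (mk g) := by
    calc (mk g : ℚ⟦X⟧) = (1 - X) * rescale q (mk g) := hG
      _ = (1 - X) * ((1 - C q * X) * rescale (q ^ 2) (mk g)) := by rw [← hG1]
      _ = _ := by ring
  have hF : (1 - X) * mk a * mk s = ((1 - X) * (1 - C q * X)) *
      rescale (q ^ 2) ((1 - X) * mk a * mk s : ℚ⟦X⟧) := by
    have hr : rescale (q ^ 2) ((1 - X) * mk a * mk s : ℚ⟦X⟧) =
        (1 - C (q ^ 2) * X) * rescale (q ^ 2) (mk a) * rescale (q ^ 2) (mk s) := by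
      rw [map_mul, map_mul, map_sub, map_one, rescale_X]
    calc (1 - X) * mk a * (mk s : ℚ⟦X⟧)
        = (1 - X) * ((1 - C (q ^ 2) * X) * rescale (q ^ 2) (mk a)) *
            ((1 - C q * X) * rescale (q ^ 2) (mk s)) := by rw [← hA, ← hS]
      _ = _ := by rw [hr]; ring
  have hD := qid_unique (q ^ 2) ?_ ((1 - X) * (1 - C q * X))
    ((1 - X) * mk a * mk s - mk g) ?_ ?_ ?_
  · exact sub_eq_zero.mp hD
  · intro n hn
    have h1 : (1 : ℚ) < q ^ 2 := one_lt_pow₀ hq (by norm_num)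
    exact (one_lt_pow₀ h1 (by omega)).ne'
  · simp [coeff_zero_eq_constantCoeff]
  · rw [map_sub, mul_sub, ← hF, ← hG2]
  · have e1 : coeff 0 ((1 - X) * mk a * mk s : ℚ⟦X⟧) = 1 := by
      rw [coeff_mul, Finset.Nat.antidiagonal_zero, Finset.sum_singleton, coeff_mul,
        Finset.Nat.antidiagonal_zero, Finset.sum_singleton, map_sub, coeff_zero_one, coeff_zero_X,
        coeff_mk, coeff_mk, a0, s0]
      norm_num
    rw [map_sub, e1, coeff_mk, g0, sub_self]

/-- **[QID]** the `q`-series identity. -/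
theorem pkgQid : Cfsg.Agent.Lib.Helper19.SPU.PkgQid := by
  intro q hq
  have hq1 : (1 : ℚ) < (q : ℚ) := by exact_mod_cast hq
  have hq0 : (q : ℚ) ≠ 0 := by positivity
  have hpow : ∀ n : ℕ, ((q : ℚ) ^ n) ≠ 0 := fun n => pow_ne_zero n hq0
  have hne : ∀ j : ℕ, (q : ℚ) ^ (2 * (j + 1)) - 1 ≠ 0 := by
    intro j
    exact sub_ne_zero.mpr (one_lt_pow₀ hq1 (by omega)).ne'
  have hprod : ∀ m : ℕ, (∏ i ∈ Finset.range m, ((q : ℚ) ^ (2 * (i + 1)) - 1)) ≠ 0 := by
    intro m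
    exact Finset.prod_ne_zero_iff.mpr (fun i _ => hne i)
  have hne2 : ∀ k i : ℕ, i < k → (q : ℚ) ^ k - (q : ℚ) ^ i ≠ 0 := by
    intro k i hik
    exact sub_ne_zero.mpr (pow_lt_pow_right₀ hq1 hik).ne'
  have hprod2 : ∀ k : ℕ, (∏ i ∈ Finset.range k, ((q : ℚ) ^ k - (q : ℚ) ^ i)) ≠ 0 := by
    intro k
    exact Finset.prod_ne_zero_iff.mpr (fun i hi => hne2 k i (Finset.mem_range.mp hi))
  have hshift : ∀ k : ℕ, (∏ i ∈ Finset.range (k + 1), ((q : ℚ) ^ (k + 1) - (q : ℚ) ^ i)) =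
      (q : ℚ) ^ k * (∏ i ∈ Finset.range k, ((q : ℚ) ^ k - (q : ℚ) ^ i)) *
        ((q : ℚ) ^ (k + 1) - 1) := by
    intro k
    rw [Finset.prod_range_succ', pow_zero]
    congr 1
    have e : ∀ i ∈ Finset.range k, (q : ℚ) ^ (k + 1) - (q : ℚ) ^ (i + 1) =
        (q : ℚ) * ((q : ℚ) ^ k - (q : ℚ) ^ i) := by
      intro i _
      ring
    rw [Finset.prod_congr rfl e, Finset.prod_mul_distrib, Finset.prod_const, Finset.card_range]
  refine qid_core (q : ℚ) hq1 _ _ _ ?_ ?_ ?_ ?_ ?_ ?_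
  · simp
  · simp
  · simp
  · intro m
    show (q : ℚ) ^ ((m + 1) * (2 * (m + 1) + 1)) /
        ((q : ℚ) ^ ((m + 1) ^ 2) * ∏ i ∈ Finset.range (m + 1), ((q : ℚ) ^ (2 * (i + 1)) - 1)) *
        ((q : ℚ) ^ (2 * (m + 1)) - 1) = (q : ℚ) ^ (2 * (m + 1)) *
        ((q : ℚ) ^ (m * (2 * m + 1)) /
          ((q : ℚ) ^ (m ^ 2) * ∏ i ∈ Finset.range m, ((q : ℚ) ^ (2 * (i + 1)) - 1)))
    rw [Finset.prod_range_succ]
    have h1 := hprod m
    have h2 := hne m
    have h3 := hpow (m ^ 2)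
    have h4 := hpow ((m + 1) ^ 2)
    field_simp
    ring
  · intro k
    show (q : ℚ) ^ (2 * (k + 1) ^ 2) /
        ((q : ℚ) ^ ((k + 1) ^ 2) * ∏ i ∈ Finset.range (k + 1), ((q : ℚ) ^ (2 * (i + 1)) - 1)) *
        ((q : ℚ) ^ (2 * (k + 1)) - 1) = (q : ℚ) ^ (2 * k + 1) *
        ((q : ℚ) ^ (2 * k ^ 2) /
          ((q : ℚ) ^ (k ^ 2) * ∏ i ∈ Finset.range k, ((q : ℚ) ^ (2 * (i + 1)) - 1)))
    rw [Finset.prod_range_succ]
    have h1 := hprod k
    have h2 := hne k
    have h3 := hpow (k ^ 2)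
    have h4 := hpow ((k + 1) ^ 2)
    field_simp
    ring
  · intro k
    show (q : ℚ) ^ ((k + 1) * (k + 1 - 1)) /
        (∏ i ∈ Finset.range (k + 1), ((q : ℚ) ^ (k + 1) - (q : ℚ) ^ i)) *
        ((q : ℚ) ^ (k + 1) - 1) = (q : ℚ) ^ k *
        ((q : ℚ) ^ (k * (k - 1)) / ∏ i ∈ Finset.range k, ((q : ℚ) ^ k - (q : ℚ) ^ i))
    rw [hshift k, Nat.add_sub_cancel]
    have h1 := hprod2 k
    have h2 : (q : ℚ) ^ (k + 1) - 1 ≠ 0 := sub_ne_zero.mpr (one_lt_pow₀ hq1 (by omega)).ne'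
    have h3 := hpow k
    have h5 : (q : ℚ) ^ ((k + 1) * k) = (q : ℚ) ^ k * (q : ℚ) ^ k * (q : ℚ) ^ (k * (k - 1)) := by
      rw [← pow_add, ← pow_add]
      congr 1
      rcases k with _ | j
      · rfl
      · rw [Nat.add_sub_cancel]
        ring
    rw [h5]
    field_simp

end Cfsg.Agent.Lib.Helper1.SPU
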